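import Cfsg.Agent.H478.Cyc.MTwoU
import Cfsg.Agent.H76.RC.Fld

/-!
# S3510, `Sp₄(q)`, `q` even, a field automorphism in the cover, fixed field of order at least `4` (box M2F, helper478)

* `exists_frame` : a hyperbolic basis of vectors fixed by `x`;
* `end_two` : `{y_{e,f}, x}` does not cover (`e, f` fixed by `x`), any fixed field;
* `m2f_big`.
-/

set_option autoImplicit false
set_option linter.unusedSimpArgs false
set_option linter.unusedVariables false

namespace Cfsg.Agent.H478.Cyc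

open Cfsg Cfsg.Agent.H106.RC Cfsg.Agent.H380.RC Cfsg.Agent.H385.RC Cfsg.Agent.H76.RC Module MulAction

section geom

variable {F V G : Type*} [Field F] [AddCommGroup V] [Module F V] [Group G] [DistribMulAction G V]
  {B : LinearMap.BilinForm F V} {N : Subgroup G} {x : G} {σ : F ≃+* F} {p : ℕ}

/-- a hyperbolic basis of fixed vectors -/
theorem exists_frame [Nontrivial V] [Module.Finite F V] (h : Ev B N) (hp : p.Prime) (hx : x ^ p = 1)
    (h1 : ∀ (a : F) (v : V), x • a • v = σ a • x • v)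
    (h2 : ∀ u v, B (x • u) (x • v) = σ (B u v)) (hσ : σ ≠ RingEquiv.refl F) (hdim : finrank F V = 4) :
    ∃ e f e' f' : V, x • e = e ∧ x • f = f ∧ x • e' = e' ∧ x • f' = f' ∧ B e e' = 1 ∧ B f f' = 1 ∧ B e f = 0 ∧
      B e f' = 0 ∧ B f e' = 0 ∧ B e' f' = 0 := by
  have hg := semiIso_of (B := B) x h1 h2
  obtain ⟨hfr, hfin⟩ := finrank_fix (B := B) hp hx h1 h2 hσ
  obtain ⟨k, E, hE⟩ := BpCl.exists_coords (bilin0_alt h h1 h2)
    (BpCl.bilin0_nondeg (semiIso_of (B := B) x h1 h2) (span_fix hp hx h1 h2 hσ) h.nd)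
  have hk : finrank (BpCl.K0 σ) (BpCl.U (semiIso_of (B := B) x h1 h2).toSemi) = 2 * k := by
    rw [← E.finrank_eq, finrank_fintype_fun_eq_card]
    simp [two_mul]
  have hk3 : k = 2 := by omega
  subst hk3
  have hB : ∀ u v : BpCl.U (semiIso_of (B := B) x h1 h2).toSemi, B (u : V) v =
      ((sympForm 2 (BpCl.K0 σ) (E.symm u) (E.symm v) : BpCl.K0 σ) : F) := by
    intro u v
    rw [← hE, E.apply_symm_apply, E.apply_symm_apply]
    rfl
  have hB' : ∀ u v, B (E u : V) (E v) = ((sympForm 2 (BpCl.K0 σ) u v : BpCl.K0 σ) : F) := by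
    intro u v
    rw [hB, E.symm_apply_apply, E.symm_apply_apply]
  classical
  let s : Fin 2 ⊕ Fin 2 → (Fin 2 ⊕ Fin 2 → BpCl.K0 σ) := fun j => Pi.single j 1
  have hs : ∀ i j, sympForm 2 (BpCl.K0 σ) (s i) (s j) = Matrix.J (Fin 2) (BpCl.K0 σ) i j := by
    intro i j
    simp [s, sympForm]
  have hx' : ∀ u : BpCl.U (semiIso_of (B := B) x h1 h2).toSemi, x • (u : V) = u := fun u => u.2
  refine ⟨E (s (Sum.inr 0)), E (s (Sum.inr 1)), E (s (Sum.inl 0)), E (s (Sum.inl 1)),
    hx' _, hx' _, hx' _, hx' _, ?_, ?_, ?_, ?_, ?_, ?_⟩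
  · rw [hB', hs]; simp [Matrix.J]
  · rw [hB', hs]; simp [Matrix.J]
  · rw [hB', hs]; simp [Matrix.J]
  · rw [hB', hs]; simp [Matrix.J]
  · rw [hB', hs]; simp [Matrix.J]
  · rw [hB', hs]; simp [Matrix.J]

/-- `{y_{e,f}, x}` is not a cover -/
theorem end_two {Ω : Type*} [MulAction G Ω] [Nonempty Ω] [Finite F] [FiniteDimensional F V] (h : Ev B N)
    (hE : Env G Ω N) (hq : 2 < Nat.card F) (h1 : ∀ (a : F) (v : V), x • a • v = σ a • x • v)
    (h2 : ∀ u v, B (x • u) (x • v) = σ (B u v)) (hσ : σ ≠ RingEquiv.refl F) {y : G} {e f e' f' : V}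
    (hT : TwoE B y e f e' f') (hf : x • f = f) (hcov : ∀ ω : Ω, y • ω = ω ∨ x • ω = ω) : False := by
  obtain ⟨a, ha⟩ : ∃ a, σ a ≠ a := by
    by_contra hno
    push Not at hno
    exact hσ (RingEquiv.ext hno)
  have hC : ∀ g : G, g ∈ Subgroup.centralizer {y} ↔ g * y = y * g := fun g => Subgroup.mem_centralizer_singleton_iff
  have hc : a + σ a ≠ 0 := by
    intro h0
    apply ha
    have h3 := h.add_self a
    linear_combination h0 - h3
  have htr : ∀ b : F, IsW B e f (h.tr f b) 0 0 b := by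
    intro b v
    rw [h.tr_apply]
    simp
  -- `t = t_f(a + σ a)`
  have hta : h.tr f a * y = y * h.tr f a := by
    have h3 := (htr a).mul h hT.h3 hT.isW
    have h4 := hT.isW.mul h hT.h3 (htr a)
    apply IsW.ext h h3
    convert h4 using 1 <;> ring
  have ht : h.tr f (a + σ a) ∈ cmm (Subgroup.centralizer {y}) x := by
    have h3 : h.tr f a * x * (h.tr f a)⁻¹ * x⁻¹ = h.tr f (a + σ a) := by
      have h4 : h.tr f a * x * (h.tr f a)⁻¹ * x⁻¹ = h.tr f a * (x * h.tr f a * x⁻¹) := by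
        rw [h.tr_inv]; group
      rw [h4, h.conj_tr h1 h2, hf]
      apply h.ext
      intro v
      rw [mul_smul, h.tr_apply, h.tr_apply, h.tr_apply]
      simp only [LinearMap.map_add, LinearMap.map_smul, LinearMap.add_apply, LinearMap.smul_apply, h.self, smul_zero,
        add_zero]
      module
    rw [← h3]
    exact mem_cmm ((hC _).2 hta)
  have hmem := hT.mem_of_comm h hq (cmm (Subgroup.centralizer {y}) x) (fun b hb hby d hd => cmm_conj ((hC b).2 hby) hd)
    (fun b hb hby => (cmm (Subgroup.centralizer {y}) x).mul_mem (cmm_conj ((hC b).2 hby) ht)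
      ((cmm (Subgroup.centralizer {y}) x).inv_mem ht)) (htr _) hc
  have hy1 : y ≠ 1 := by
    intro h3
    have h4 := hT.hu e'
    have h5 : f = 0 := by
      rw [h3, one_smul, h.symm e' e, h.symm e' f, hT.h1, hT.h5, one_smul, zero_smul, add_zero] at h4
      exact left_eq_add.1 h4
    have h6 := hT.h2
    rw [h5, map_zero, LinearMap.zero_apply] at h6
    exact zero_ne_one h6
  exact not_cov_one hE hcov (fun b hb => (hC b).1 hb) hy1 hmem

end geom

/-- **box M2F, `q₀ ≥ 4`** -/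
theorem m2f_big {F V G Ω S : Type} [Field F] [Finite F] [AddCommGroup V] [Module F V] [FiniteDimensional F V]
    [Group G] [Finite G] [DistribMulAction G V] {B : LinearMap.BilinForm F V} {N : Subgroup G} (h : Ev B N)
    [MulAction G Ω] [Nonempty Ω] (hE : Env G Ω N) [Group S] [Finite S] (hIH : IH (Nat.card S)) (eS : N ≃* S)
    {ι : Type} [Finite ι] {x : ι → G} {r : ι → ℕ} (hx : PF x r) (hcov : Cov Ω x)
    (hdim : Module.finrank F V = 4) (i : ι) (hi : x i ∉ N)
    (hbig : ∀ σ : F ≃+* F, (∀ (a : F) (v : V), x i • a • v = σ a • x i • v) → 2 < Nat.card {a : F // σ a = a}) :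
    False := by
  obtain ⟨σ, h1, h2⟩ := h.semi (x i)
  have hnt : Nontrivial V := by
    apply Module.nontrivial_of_finrank_pos (R := F)
    omega
  have hσ : σ ≠ RingEquiv.refl F := by
    rintro rfl
    exact hi ((h.mem _).2 h1)
  have hp := hx.prime i
  have hxp := hx.pow i
  have hK : 2 < Nat.card (BpCl.K0 σ) := hbig σ h1
  have hq : 2 < Nat.card F := lt_of_lt_of_le hK (Nat.card_le_card_of_injective (Subtype.val : BpCl.K0 σ → F)
    Subtype.val_injective)
  have hM : SimpCl ↥(cenN N (x i)) := by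
    obtain ⟨e1⟩ := nonempty_cenN h (x i)
    obtain ⟨e2⟩ := BpCl.nonempty_bilin (semiIso_of (x i) h1 h2) (span_fix hp hxp h1 h2 hσ)
    obtain ⟨hfr, hfin⟩ := finrank_fix (B := B) hp hxp h1 h2 hσ
    have h3 : Cfsg.Agent.H520.RC.NAlt (BpCl.bilin0 (semiIso_of (B := B) (x i) h1 h2)) :=
      ⟨bilin0_alt h h1 h2, BpCl.bilin0_nondeg _ (span_fix hp hxp h1 h2 hσ) h.nd⟩
    have h4 : (2 : BpCl.K0 σ) = 0 := Subtype.ext h.two
    have h5 := simpCl_Sp h3 h4 (Or.inr (Or.inl ⟨by rw [hfr]; exact hdim, hK⟩))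
    exact SimpCl.congr (e1.trans e2).symm h5
  obtain ⟨e, f, e', f', he, hf, he', hf', g1, g2, g3, g4, g5, -⟩ := exists_frame h hp hxp h1 h2 hσ hdim
  have hN := hE.norm
  have hMN : cenN N (x i) ≤ N := inf_le_left
  have hne : cenN N (x i) ≠ N := by
    intro heq
    have h3 : x i ∈ Subgroup.centralizer (N : Set G) := by
      rw [Subgroup.mem_centralizer_iff]
      intro m hm
      have h4 : m ∈ cenN N (x i) := by rw [heq]; exact hm
      exact (mem_cenN.1 h4).2.symm
    rw [hE.cent, Subgroup.mem_bot] at h3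
    exact hx.ne i h3
  have hnorm : ∀ j, x j ∈ Subgroup.normalizer (cenN N (x i) : Set G) := by
    intro j
    rw [Subgroup.mem_normalizer_iff]
    have hji := hx.comm j i
    intro m
    rw [mem_cenN, mem_cenN]
    constructor
    · rintro ⟨hm1, hm2⟩
      refine ⟨hN.conj_mem m hm1 (x j), ?_⟩
      have h5 : (x j)⁻¹ * x i = x i * (x j)⁻¹ := by
        rw [inv_mul_eq_iff_eq_mul, ← mul_assoc, hji, mul_inv_cancel_right]
      calc x i * (x j * m * (x j)⁻¹) = (x i * x j) * m * (x j)⁻¹ := by group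
        _ = x j * (x i * m) * (x j)⁻¹ := by rw [← hji]; group
        _ = x j * m * (x i * (x j)⁻¹) := by rw [hm2]; group
        _ = x j * m * (x j)⁻¹ * x i := by rw [← h5]; group
    · rintro ⟨hm1, hm2⟩
      have hm' : (x j)⁻¹ * (x j * m * (x j)⁻¹) * x j = m := by group
      have hm1' := hN.conj_mem _ hm1 (x j)⁻¹
      rw [inv_inv, hm'] at hm1'
      refine ⟨hm1', ?_⟩
      have h5 : (x j)⁻¹ * x i = x i * (x j)⁻¹ := by
        rw [inv_mul_eq_iff_eq_mul, ← mul_assoc, hji, mul_inv_cancel_right]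
      calc x i * m = (x i * (x j)⁻¹) * (x j * m * (x j)⁻¹) * x j := by group
        _ = (x j)⁻¹ * (x i * (x j * m * (x j)⁻¹)) * x j := by rw [← h5]; group
        _ = (x j)⁻¹ * (x j * m * (x j)⁻¹) * (x i * x j) := by rw [hm2]; group
        _ = m * x i := by rw [← hji]; group
  have hrule : ∀ ω : Ω, cenN N (x i) ≤ MulAction.stabilizer G ω ∨
      ∃ j, (∀ m ∈ cenN N (x i), x j * m = m * x j) ∧ x j • ω = ω := fun ω =>
    mrule_IH hIH eS hMN hne (comm_self_of_simple hM.simple hM.ncomm) (MonoidHom.id ↥(cenN N (x i)))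
      Function.surjective_id (by
        intro a ha
        have h4 : a = 1 := ha
        rw [h4]
        exact Subgroup.one_mem _) hM.simple hM.ncomm hM.cl hM.nexc hx hcov hnorm ω
  have hcent : ∀ j, (∀ m ∈ cenN N (x i), x j * m = m * x j) → j = i := by
    intro j hj
    by_contra hji
    have h3 : (r i).Coprime (r j) := (Nat.coprime_primes hp (hx.prime j)).2 fun h4 => hji (hx.inj h4).symm
    exact hx.ne j (eq_one_of_cent h hp hxp h1 h2 hσ (hx.pow j) h3 hj)
  have hy : h.sr g3 ∈ cenN N (x i) := sr_mem_cenN h g3 he hf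
  have hT : TwoE B (h.sr g3) e f e' f' := ⟨g1, g2, g3, g4, g5, fun v => by rw [h.sr_apply, add_assoc]⟩
  refine end_two h hE hq h1 h2 hσ hT hf fun ω => ?_
  rcases hrule ω with h3 | ⟨j, hj, hjω⟩
  · exact Or.inl (h3 hy)
  · rw [hcent j hj] at hjω
    exact Or.inr hjω

end Cfsg.Agent.H478.Cyc
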