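import Cfsg.Agent.H385.RC.Ev

/-!
# S3510, `Sp₄(q)`, `q ≥ 4` even, a cover containing an involution of `Sp₄(q)` (box M2U, helper478)

No induction hypothesis is used.  `u` is the involution, `n = u + 1`.
* (III) `B v (u v)` is not zero and `u` is not a transvection: no odd member.
* (I) `u = t_z(1)`, `U = Q_z` (elementary abelian, `C_U(x_j) = {t_z(c)}` for all odd `x_j`).
* (II) `B v (u v) = 0`: `u = y_{e,f}`, `U = U_E`, `E = ⟨e, f⟩` (`C_U(x_j) = {y_{e,cf}}`).
In (I), (II) all `[U, x_j]` are equal, every point is fixed by `u` or `t ∈ [U, x_j]`, and `u ∈ [C(u), t]`.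
-/

set_option autoImplicit false
set_option linter.unusedSimpArgs false
set_option linter.unusedVariables false

namespace Cfsg.Agent.H478.Cyc

open Cfsg Cfsg.Agent.H106.RC Cfsg.Agent.H380.RC Cfsg.Agent.H385.RC Module MulAction

section coprime

variable {A : Type*} [AddCommGroup A]

theorem nsmul_odd (h2 : ∀ a : A, a + a = 0) {r : ℕ} (hr : Odd r) (a : A) : r • a = a := by
  obtain ⟨k, rfl⟩ := hr
  rw [add_smul, mul_comm, mul_smul, two_smul, h2, smul_zero, one_smul, zero_add]

/-- coprime action on an elementary abelian `2`-group -/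
theorem range_le {φ ψ : AddMonoid.End A} (h2 : ∀ a : A, a + a = 0) {r s : ℕ} (hr : Odd r) (hs : Odd s)
    (hφ : φ ^ r = 1) (hψ : ψ ^ s = 1) (hc : φ * ψ = ψ * φ) (hker : ∀ a, ψ a = a → φ a = a) (a : A) :
    ∃ b, φ a - a = ψ b - b := by
  set d := φ a - a with hd
  -- the norm of `d`
  have hN : ∀ (χ : AddMonoid.End A) (t : ℕ), χ ^ t = 1 → ∀ c : A,
      ∑ k ∈ Finset.range t, (χ ^ k) (χ c - c) = 0 := by
    intro χ t ht c
    have h1 : ∀ k : ℕ, (χ ^ k) (χ c - c) = (χ ^ (k + 1)) c - (χ ^ k) c := by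
      intro k
      rw [map_sub, pow_succ]; rfl
    rw [Finset.sum_congr rfl fun k _ => h1 k, Finset.sum_range_sub (fun k => (χ ^ k) c), ht, pow_zero, sub_self]
  clear_value d
  set e := ∑ k ∈ Finset.range s, (ψ ^ k) d with he
  have hψe : ψ e = e := by
    rw [← sub_eq_zero, he, map_sum, ← Finset.sum_sub_distrib]
    have h1 := hN ψ s hψ d
    rw [← h1]
    apply Finset.sum_congr rfl
    intro k _
    have h2 : ψ ((ψ ^ k) d) = (ψ ^ k) (ψ d) := by
      change (ψ * ψ ^ k) d = (ψ ^ k * ψ) d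
      rw [← pow_succ, ← pow_succ']
    rw [h2, map_sub]
  have hφe : φ e = e := hker e hψe
  have hcomm : ∀ (k : ℕ) (c : A), φ ((ψ ^ k) c) = (ψ ^ k) (φ c) := by
    intro k c
    have h1 : Commute φ (ψ ^ k) := Commute.pow_right hc k
    change (φ * ψ ^ k) c = (ψ ^ k * φ) c
    rw [h1.eq]
  have he1 : e = φ (∑ k ∈ Finset.range s, (ψ ^ k) a) - ∑ k ∈ Finset.range s, (ψ ^ k) a := by
    rw [map_sum, ← Finset.sum_sub_distrib, he]
    apply Finset.sum_congr rfl
    intro k _
    rw [hd, map_sub, hcomm]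
  have he0 : e = 0 := by
    have h1 : ∑ k ∈ Finset.range r, (φ ^ k) e = 0 := by
      conv_lhs => rw [he1]
      exact hN φ r hφ _
    have h3 : ∀ k : ℕ, (φ ^ k) e = e := by
      intro k
      induction k with
      | zero => rfl
      | succ k ih =>
        rw [pow_succ]
        change (φ ^ k) (φ e) = e
        rw [hφe, ih]
    rw [Finset.sum_congr rfl fun k _ => h3 k, Finset.sum_const, Finset.card_range, nsmul_odd h2 hr] at h1
    exact h1
  -- `d = - ∑ (ψ ^ k d - d)`
  have h4 : ∀ k : ℕ, (ψ ^ k) d - d = ψ (∑ i ∈ Finset.range k, (ψ ^ i) d) - ∑ i ∈ Finset.range k, (ψ ^ i) d := by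
    intro k
    rw [map_sum, ← Finset.sum_sub_distrib]
    have h5 : ∀ i : ℕ, ψ ((ψ ^ i) d) - (ψ ^ i) d = (ψ ^ (i + 1)) d - (ψ ^ i) d := by
      intro i
      rw [pow_succ']; rfl
    rw [Finset.sum_congr rfl fun i _ => h5 i, Finset.sum_range_sub (fun i => (ψ ^ i) d), pow_zero]
    rfl
  refine ⟨-∑ k ∈ Finset.range s, ∑ i ∈ Finset.range k, (ψ ^ i) d, ?_⟩
  have h6 : ∑ k ∈ Finset.range s, ((ψ ^ k) d - d) = -d := by
    rw [Finset.sum_sub_distrib, ← he, he0, Finset.sum_const, Finset.card_range, nsmul_odd h2 hs, zero_sub]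
  rw [map_neg, map_sum, neg_sub_neg, ← neg_sub, ← Finset.sum_sub_distrib, ← Finset.sum_congr rfl fun k _ => h4 k, h6,
    neg_neg]

end coprime

section bridge

variable {G : Type*} [Group G]

/-- conjugation on a normalised subgroup -/
def cj (U : Subgroup G) (x : G) (hU : ∀ u ∈ U, x * u * x⁻¹ ∈ U) : U →* U where
  toFun u := ⟨x * u * x⁻¹, hU u u.2⟩
  map_one' := Subtype.ext (by simp)
  map_mul' a b := Subtype.ext (by simp)

/-- **all commutator groups `[U, x]` with the same fixed points are equal** -/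
theorem comm_mem {U : Subgroup G} (hU2 : ∀ u ∈ U, u * u = 1) {x y : G} {r s : ℕ} (hr : Odd r) (hs : Odd s)
    (hx : x ^ r = 1) (hy : y ^ s = 1) (hxy : x * y = y * x) (hUx : ∀ u ∈ U, x * u * x⁻¹ ∈ U)
    (hUy : ∀ u ∈ U, y * u * y⁻¹ ∈ U) (hker : ∀ u ∈ U, y * u = u * y → x * u = u * x) {u : G} (hu : u ∈ U) :
    u * x * u⁻¹ * x⁻¹ ∈ cmm U y := by
  have hinv : ∀ u ∈ U, u⁻¹ = u := fun u hu => inv_eq_of_mul_eq_one_left (hU2 u hu)
  have hab : ∀ a ∈ U, ∀ b ∈ U, a * b = b * a := by
    intro a ha b hb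
    have h1 := hinv _ (U.mul_mem ha hb)
    rw [mul_inv_rev, hinv a ha, hinv b hb] at h1
    exact h1.symm
  let _ : CommGroup U := { (inferInstance : Group U) with mul_comm := fun a b => Subtype.ext (hab a a.2 b b.2) }
  let φ : AddMonoid.End (Additive U) := MonoidHom.toAdditive (cj U x hUx)
  let ψ : AddMonoid.End (Additive U) := MonoidHom.toAdditive (cj U y hUy)
  have hφ0 : ∀ a : Additive U, (((φ a).toMul : U) : G) = x * (a.toMul : U) * x⁻¹ := fun a => rfl
  have hψ0 : ∀ a : Additive U, (((ψ a).toMul : U) : G) = y * (a.toMul : U) * y⁻¹ := fun a => rfl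
  have hφp : ∀ (k : ℕ) (a : Additive U), ((((φ ^ k) a).toMul : U) : G) = x ^ k * (a.toMul : U) * (x ^ k)⁻¹ := by
    intro k
    induction k with
    | zero => intro a; simp
    | succ k ih =>
      intro a
      rw [pow_succ]
      change ((((φ ^ k) (φ a)).toMul : U) : G) = _
      rw [ih, hφ0, pow_succ]
      group
  have hψp : ∀ (k : ℕ) (a : Additive U), ((((ψ ^ k) a).toMul : U) : G) = y ^ k * (a.toMul : U) * (y ^ k)⁻¹ := by
    intro k
    induction k with
    | zero => intro a; simp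
    | succ k ih =>
      intro a
      rw [pow_succ]
      change ((((ψ ^ k) (ψ a)).toMul : U) : G) = _
      rw [ih, hψ0, pow_succ]
      group
  have hext : ∀ a b : Additive U, ((a.toMul : U) : G) = ((b.toMul : U) : G) → a = b := fun a b h =>
    Additive.toMul.injective (Subtype.ext h)
  obtain ⟨b, hb⟩ := range_le (φ := φ) (ψ := ψ) (fun a => hext _ _ (hU2 _ a.toMul.2)) hr hs
    (AddMonoidHom.ext fun a => hext _ _ (by
      refine (hφp r a).trans ?_
      rw [hx, one_mul, inv_one, mul_one]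
      rfl))
    (AddMonoidHom.ext fun a => hext _ _ (by
      refine (hψp s a).trans ?_
      rw [hy, one_mul, inv_one, mul_one]
      rfl))
    (AddMonoidHom.ext fun a => hext _ _ (by
      change x * (y * ((a.toMul : U) : G) * y⁻¹) * x⁻¹ = y * (x * ((a.toMul : U) : G) * x⁻¹) * y⁻¹
      have h1 : x * (y * ((a.toMul : U) : G) * y⁻¹) * x⁻¹ = (x * y) * (a.toMul : U) * (x * y)⁻¹ := by group
      rw [h1, hxy]
      group))
    (fun a ha => hext _ _ (by
      have h1 := congrArg (fun c : Additive U => ((c.toMul : U) : G)) ha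
      change y * ((a.toMul : U) : G) * y⁻¹ = ((a.toMul : U) : G) at h1
      change x * ((a.toMul : U) : G) * x⁻¹ = ((a.toMul : U) : G)
      have h2 := hker _ a.toMul.2 (by
        calc y * ((a.toMul : U) : G) = (y * ((a.toMul : U) : G) * y⁻¹) * y := by group
          _ = _ := by rw [h1])
      rw [h2]
      group))
    (Additive.ofMul ⟨u, hu⟩)
  have h0 : ∀ a b : Additive U, (((a - b).toMul : U) : G) = (a.toMul : U) * ((b.toMul : U) : G)⁻¹ := fun a b => by
    rw [toMul_sub, div_eq_mul_inv]; rfl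
  have h1 : x * u * x⁻¹ * u⁻¹ = y * ((b.toMul : U) : G) * y⁻¹ * ((b.toMul : U) : G)⁻¹ := by
    have h1 := congrArg (fun c : Additive U => ((c.toMul : U) : G)) hb
    simp only [h0] at h1
    exact h1
  have h2 : u * x * u⁻¹ * x⁻¹ = (x * u * x⁻¹ * u⁻¹)⁻¹ := by group
  rw [h2, h1]
  have h3 : (y * ((b.toMul : U) : G) * y⁻¹ * ((b.toMul : U) : G)⁻¹)⁻¹ =
    ((b.toMul : U) : G) * y * ((b.toMul : U) : G)⁻¹ * y⁻¹ := by group
  rw [h3]
  exact mem_cmm b.toMul.2

variable {Ω ι : Type*} [MulAction G Ω]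

/-- every point is fixed by the involution or by `t = [g, x j0]` -/
theorem cover_pair [Finite G] [Finite ι] {x : ι → G} {r : ι → ℕ} (hx : PF x r) (hcov : Cov Ω x) {i0 : ι}
    (hi0 : r i0 = 2) {U : Subgroup G} (hU2 : ∀ u ∈ U, u * u = 1) (hUx : ∀ j, ∀ u ∈ U, x j * u * (x j)⁻¹ ∈ U)
    (hu : x i0 ∈ U)
    (hker : ∀ i j, i ≠ i0 → j ≠ i0 → ∀ u ∈ U, x i * u = u * x i → x j * u = u * x j) {j0 : ι} (hj0 : j0 ≠ i0) {g : G}
    (hg : g ∈ U) (ω : Ω) : x i0 • ω = ω ∨ (g * x j0 * g⁻¹ * (x j0)⁻¹) • ω = ω := by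
  by_cases hω : x i0 • ω = ω
  · exact Or.inl hω
  right
  have hodd : ∀ j, j ≠ i0 → Odd (r j) := by
    intro j hj
    apply (hx.prime j).odd_of_ne_two
    intro h
    exact hj (hx.inj (h.trans hi0.symm))
  have hinv : ∀ u ∈ U, u⁻¹ = u := fun u hu => inv_eq_of_mul_eq_one_left (hU2 u hu)
  have hab : ∀ a ∈ U, ∀ b ∈ U, a * b = b * a := by
    intro a ha b hb
    have h1 := hinv _ (U.mul_mem ha hb)
    rw [mul_inv_rev, hinv a ha, hinv b hb] at h1
    exact h1.symm
  have hP : IsPGroup 2 U := by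
    intro a
    refine ⟨1, ?_⟩
    rw [pow_one, pow_two]
    exact Subtype.ext (hU2 a a.2)
  obtain ⟨k, hk⟩ := (IsPGroup.iff_card).1 hP
  have hco : ∀ j, j ≠ i0 → (r j).Coprime (Nat.card U) := by
    intro j hj
    rw [hk]
    exact Nat.Coprime.pow_right k (Nat.coprime_two_right.2 (hodd j hj))
  obtain ⟨⟨j, hj⟩, hj1⟩ := cover_loc (ι := {j : ι // j ≠ i0}) (x := fun j => x j.1) (r := fun j => r j.1)
    (fun j => hx.prime j.1) (fun j => hx.pow j.1) (fun i j => hx.comm i.1 j.1) (U := U) (ω := ω)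
    (by
      intro v hv
      obtain ⟨j, hj⟩ := hcov (v • ω)
      refine ⟨⟨j, ?_⟩, hj⟩
      rintro rfl
      apply hω
      rw [← mul_smul, hab _ hu _ hv, mul_smul] at hj
      exact (MulAction.injective v) hj)
    (fun j => hUx j.1) (Or.inl ⟨hab, fun i j h1 h2 => absurd (hco i.1 i.2) h1⟩)
  exact comm_le hj1 (comm_mem hU2 (hodd j0 hj0) (hodd j hj) (hx.pow j0) (hx.pow j) (hx.comm j0 j) (hUx j0) (hUx j)
    (hker j j0 hj hj0) hg)

end bridge

section sympl

variable {F V G : Type*} [Field F] [AddCommGroup V] [Module F V] [Group G] [DistribMulAction G V]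
  {B : LinearMap.BilinForm F V} {N : Subgroup G}

/-- elements of odd order do not shift by fixed vectors -/
theorem fix_add (h : Ev B N) {x : G} {r : ℕ} (hr : Odd r) (hx : x ^ r = 1) {w e : V} (he : x • e = e)
    (hw : x • w = w + e) : e = 0 := by
  have h1 : ∀ n : ℕ, x ^ n • w = w + n • e := by
    intro n
    induction n with
    | zero => simp
    | succ n ih =>
      rw [pow_succ', mul_smul, ih, smul_add, hw, smul_comm x n e, he, add_smul, one_smul]
      abel
  have h2 := h1 r
  rw [hx, one_smul, left_eq_add, nsmul_odd h.vadd_self hr] at h2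
  exact h2

/-- a vector outside `F w` has a dual vector orthogonal to `w` -/
theorem exists_dual (h : Ev B N) {z w : V} (hz : ∀ c : F, z ≠ c • w) : ∃ v, B z v = 1 ∧ B w v = 0 := by
  have hz0 : z ≠ 0 := fun h0 => hz 0 (by rw [h0, zero_smul])
  by_cases hex : ∃ v, B w v = 0 ∧ B z v ≠ 0
  · obtain ⟨v, h1, h2⟩ := hex
    refine ⟨(B z v)⁻¹ • v, ?_, ?_⟩
    · rw [map_smul, smul_eq_mul, inv_mul_cancel₀ h2]
    · rw [map_smul, h1, smul_zero]
  · exfalso
    push Not at hex
    by_cases hw : ∀ v, B w v = 0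
    · exact hz0 (h.nd z fun v => hex v (hw v))
    · push Not at hw
      obtain ⟨v1, hv1⟩ := hw
      refine hz ((B w v1)⁻¹ * B z v1) ?_
      rw [← sub_eq_zero]
      apply h.nd
      intro v
      have h1 := hex (v - ((B w v1)⁻¹ * B w v) • v1) (by
        rw [map_sub, map_smul, smul_eq_mul]
        field_simp
        ring)
      rw [map_sub, map_smul, smul_eq_mul, sub_eq_zero] at h1
      rw [map_sub, map_smul, LinearMap.sub_apply, LinearMap.smul_apply, smul_eq_mul, h1]
      field_simp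
      ring

variable [FiniteDimensional F V]

/-- coordinates in dimension four -/
theorem coord (h : Ev B N) (hdim : finrank F V = 4) {e f e' f' : V} (h1 : B e e' = 1) (h2 : B f f' = 1) (h3 : B e f = 0)
    (h4 : B e f' = 0) (h5 : B f e' = 0) (x : V) : ∃ a b c d : F, x = a • e + b • f + c • e' + d • f' := by
  have h3' : B f e = 0 := by rw [h.symm, h3]
  have h1' : B e' e = 1 := by rw [h.symm, h1]
  have h2' : B f' f = 1 := by rw [h.symm, h2]
  have h4' : B f' e = 0 := by rw [h.symm, h4]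
  have h5' : B e' f = 0 := by rw [h.symm, h5]
  have hli : LinearIndependent F ![e, f, e', f'] := by
    rw [Fintype.linearIndependent_iff]
    intro g hg
    have hg' : g 0 • e + g 1 • f + g 2 • e' + g 3 • f' = 0 := by
      rw [← hg, Fin.sum_univ_four]
      rfl
    have key : ∀ v, g 0 * B e v + g 1 * B f v + g 2 * B e' v + g 3 * B f' v = 0 := by
      intro v
      have := congrArg (fun y => B y v) hg'
      simpa using this
    have k1 := key e
    have k2 := key f
    have k3 := key e'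
    have k4 := key f'
    simp only [h.self, h1, h2, h3, h4, h5, h1', h2', h3', h4', h5', mul_zero, mul_one, zero_add, add_zero] at k1 k2 k3 k4
    rw [k2, zero_mul, add_zero] at k3
    rw [k1, zero_mul, add_zero] at k4
    intro i
    fin_cases i
    · exact k3
    · exact k4
    · exact k1
    · exact k2
  have hsp : Submodule.span F (Set.range ![e, f, e', f']) = ⊤ := by
    apply Submodule.eq_top_of_finrank_eq
    rw [finrank_span_eq_card hli, hdim]
    rfl
  have hx : x ∈ Submodule.span F (Set.range ![e, f, e', f']) := by rw [hsp]; trivial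
  rw [Submodule.mem_span_range_iff_exists_fun] at hx
  obtain ⟨c, hc⟩ := hx
  refine ⟨c 0, c 1, c 2, c 3, ?_⟩
  rw [← hc, Fin.sum_univ_four]
  rfl

/-- `E^⊥ = E` -/
theorem perp_mem (h : Ev B N) (hdim : finrank F V = 4) {e f e' f' : V} (h1 : B e e' = 1) (h2 : B f f' = 1) (h3 : B e f = 0)
    (h4 : B e f' = 0) (h5 : B f e' = 0) {x : V} (hx1 : B x e = 0) (hx2 : B x f = 0) : ∃ a b : F, x = a • e + b • f := by
  obtain ⟨a, b, c, d, rfl⟩ := coord h hdim h1 h2 h3 h4 h5 x
  have h3' : B f e = 0 := by rw [h.symm, h3]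
  have h1' : B e' e = 1 := by rw [h.symm, h1]
  have h2' : B f' f = 1 := by rw [h.symm, h2]
  have h4' : B f' e = 0 := by rw [h.symm, h4]
  have h5' : B e' f = 0 := by rw [h.symm, h5]
  simp only [map_add, map_smul, LinearMap.add_apply, LinearMap.smul_apply, h.self, h1', h2', h3', h4', h5', h3,
    smul_eq_mul, mul_zero, mul_one, zero_add, add_zero] at hx1 hx2
  exact ⟨a, b, by rw [hx1, hx2, zero_smul, zero_smul, add_zero, add_zero]⟩

/-- an element of odd order which is `1` on `E` is trivial -/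
theorem eq_one_of_fix (h : Ev B N) (hdim : finrank F V = 4) {e f e' f' : V} (h1 : B e e' = 1) (h2 : B f f' = 1)
    (h3 : B e f = 0) (h4 : B e f' = 0) (h5 : B f e' = 0) {x : G} (hxN : x ∈ N) {r : ℕ} (hr : Odd r) (hx : x ^ r = 1)
    (hxe : x • e = e) (hxf : x • f = f) : x = 1 := by
  apply h.ext
  intro v
  rw [one_smul]
  have hb1 : B (x • v - v) e = 0 := by
    have := h.isom hxN v e
    rw [hxe] at this
    rw [map_sub, LinearMap.sub_apply, this, sub_self]
  have hb2 : B (x • v - v) f = 0 := by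
    have := h.isom hxN v f
    rw [hxf] at this
    rw [map_sub, LinearMap.sub_apply, this, sub_self]
  obtain ⟨a, b, hab⟩ := perp_mem h hdim h1 h2 h3 h4 h5 hb1 hb2
  have h6 := fix_add h hr hx (w := v) (e := x • v - v) (by rw [hab, smul_add, h.lin hxN, h.lin hxN, hxe, hxf]) (by abel)
  exact sub_eq_zero.1 h6

/-! ### the three types of involutions -/

/-- the functional attached to an additive map with `f (c v) = c ^ 2 f v` -/
theorem riesz [Finite F] (h : Ev B N) (f : V → F) (hadd : ∀ v w, f (v + w) = f v + f w)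
    (hsm : ∀ (c : F) v, f (c • v) = c ^ 2 * f v) : ∃ z : V, ∀ v, f v = B v z ^ 2 := by
  have hinj : Function.Injective (fun a : F => a ^ 2) := by
    intro a b hab
    have h1 : (a - b) ^ 2 = 0 := by
      have h2 : a ^ 2 = b ^ 2 := hab
      linear_combination h2 + (b ^ 2 - a * b) * h.two
    exact sub_eq_zero.1 (pow_eq_zero_iff (two_ne_zero)|>.1 h1)
  have hsurj := Finite.surjective_of_injective hinj
  choose s hs using hsurj
  have hs' : ∀ a, s a ^ 2 = a := hs
  have hadd' : ∀ a b, s (a + b) = s a + s b := by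
    intro a b
    apply hinj
    change s (a + b) ^ 2 = (s a + s b) ^ 2
    have h1 := hs' a
    have h2 := hs' b
    rw [hs']
    linear_combination -h1 - h2 - (s a * s b) * h.two
  have hmul' : ∀ a b, s (a ^ 2 * b) = a * s b := by
    intro a b
    apply hinj
    change s (a ^ 2 * b) ^ 2 = (a * s b) ^ 2
    rw [hs', mul_pow, hs']
  let L : V →ₗ[F] F :=
    { toFun := fun v => s (f v)
      map_add' := fun v w => by rw [hadd, hadd']
      map_smul' := fun c v => by rw [hsm, hmul']; rfl }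
  have hB : Function.Injective (B : V →ₗ[F] (V →ₗ[F] F)) := by
    rw [injective_iff_map_eq_zero]
    intro u hu
    exact h.nd u fun v => by rw [hu]; rfl
  have hBs : Function.Surjective (B : V →ₗ[F] (V →ₗ[F] F)) :=
    (LinearMap.injective_iff_surjective_of_finrank_eq_finrank (Subspace.dual_finrank_eq (K := F) (V := V)).symm).1 hB
  obtain ⟨z, hz⟩ := hBs L
  refine ⟨z, fun v => ?_⟩
  rw [h.symm v z, hz]
  exact (hs' (f v)).symm

omit [FiniteDimensional F V] in
theorem sq_inj (h : Ev B N) {a b : F} (hab : a ^ 2 = b ^ 2) : a = b := by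
  have h1 : (a - b) ^ 2 = 0 := by linear_combination hab + (b ^ 2 - a * b) * h.two
  exact sub_eq_zero.1 (pow_eq_zero_iff (two_ne_zero)|>.1 h1)

omit [FiniteDimensional F V] in
/-- the vector attached to `u` is fixed by the centraliser of `u` -/
theorem fix_z (h : Ev B N) {u x : G} {z : V} (hxN : x ∈ N) (hxu : x * u = u * x)
    (hq : ∀ v, B v (u • v) = B v z ^ 2) : x • z = z := by
  have h1 : ∀ v, B (x • v) z = B v z := by
    intro v
    have h2 := hq (x • v)
    rw [← mul_smul, ← hxu, mul_smul, h.isom hxN, hq] at h2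
    have h3 : (B (x • v) z - B v z) ^ 2 = 0 := by
      linear_combination -h2 + (B v z ^ 2 - B (x • v) z * B v z) * h.two
    exact sub_eq_zero.1 (pow_eq_zero_iff (two_ne_zero)|>.1 h3)
  rw [← sub_eq_zero]
  apply h.nd
  intro v
  have h3 := h1 (x⁻¹ • v)
  rw [smul_inv_smul] at h3
  have h4 := h.isom hxN (x⁻¹ • v) z
  rw [smul_inv_smul] at h4
  rw [map_sub, LinearMap.sub_apply, h.symm _ v, h.symm z v, h4, ← h3, sub_self]

/-- the data of a short root element -/
structure TwoE (B : LinearMap.BilinForm F V) (u : G) (e f e' f' : V) : Prop where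
  h1 : B e e' = 1
  h2 : B f f' = 1
  h3 : B e f = 0
  h4 : B e f' = 0
  h5 : B f e' = 0
  hu : ∀ v, u • v = v + (B v e • f + B v f • e)

/-- an involution with `B v (u v) = 0` is a short root element -/
theorem type_two (h : Ev B N) (hdim : finrank F V = 4) {u : G} (huN : u ∈ N) (hu2 : u * u = 1) (hu1 : u ≠ 1)
    (hf : ∀ v, B v (u • v) = 0) : ∃ e f e' f' : V, TwoE B u e f e' f' := by
  have huu : ∀ v : V, u • u • v = v := fun v => by rw [← mul_smul, hu2, one_smul]
  have hadj : ∀ v w, B (u • v) w = B v (u • w) := by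
    intro v w
    have := h.isom huN v (u • w)
    rwa [huu] at this
  obtain ⟨v0, hv0⟩ : ∃ v0 : V, u • v0 + v0 ≠ 0 := by
    by_contra hno
    push Not at hno
    apply hu1
    apply h.ext
    intro v
    have := hno v
    rw [one_smul, ← add_left_inj v, this, h.vadd_self]
  obtain ⟨w1, hw1⟩ : ∃ w1, B (u • v0 + v0) w1 ≠ 0 := by
    by_contra hno
    push Not at hno
    exact hv0 (h.nd _ hno)
  obtain ⟨w0, hw0⟩ : ∃ w0, B (u • v0 + v0) w0 = 1 :=
    ⟨(B (u • v0 + v0) w1)⁻¹ • w1, by rw [map_smul, smul_eq_mul, inv_mul_cancel₀ hw1]⟩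
  have hEE : ∀ v w, B (u • v + v) (u • w + w) = 0 := by
    intro v w
    have e1 := h.isom huN v w
    have e2 := hadj v w
    simp only [map_add, LinearMap.add_apply]
    rw [e1, e2]
    linear_combination (B v w + B v (u • w)) * h.two
  have hsw : ∀ v w, B (u • v + v) w = B v (u • w + w) := by
    intro v w
    rw [map_add, map_add, LinearMap.add_apply, hadj]
  have g2 : B (u • v0 + v0) w0 = 1 := hw0
  have g1 : B (u • w0 + w0) v0 = 1 := by rw [hsw, h.symm, g2]
  have g4 : B (u • w0 + w0) w0 = 0 := by rw [map_add, LinearMap.add_apply, h.symm, hf, h.self, add_zero]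
  have g5 : B (u • v0 + v0) v0 = 0 := by rw [map_add, LinearMap.add_apply, h.symm, hf, h.self, add_zero]
  refine ⟨u • w0 + w0, u • v0 + v0, v0, w0, g1, g2, hEE _ _, g4, g5, ?_⟩
  intro v
  obtain ⟨a, b, hab⟩ := perp_mem h hdim g1 g2 (hEE _ _) g4 g5 (hEE v w0) (hEE v v0)
  have hb : B v (u • w0 + w0) = b := by
    rw [← hsw, hab, map_add, map_smul, map_smul, LinearMap.add_apply, LinearMap.smul_apply, LinearMap.smul_apply, g4, g2,
      smul_zero, zero_add, smul_eq_mul, mul_one]
  have ha : B v (u • v0 + v0) = a := by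
    rw [← hsw, hab, map_add, map_smul, map_smul, LinearMap.add_apply, LinearMap.smul_apply, LinearMap.smul_apply, g1, g5,
      smul_zero, add_zero, smul_eq_mul, mul_one]
  rw [ha, hb, add_comm (b • _), ← hab]
  have := h.vadd_self v
  calc u • v = u • v + (v + v) := by rw [this, add_zero]
    _ = _ := by abel

omit [FiniteDimensional F V] in
theorem TwoE.coeff {u : G} {e f e' f' : V} (h : Ev B N) (hT : TwoE B u e f e' f') {a b c d : F}
    (hab : a • e + b • f = c • e + d • f) : a = c ∧ b = d := by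
  constructor
  · have := congrArg (fun y => B y e') hab
    simpa [hT.h1, hT.h5] using this
  · have := congrArg (fun y => B y f') hab
    simpa [hT.h2, hT.h4] using this

omit [FiniteDimensional F V] in
/-- the centraliser of `u` on `E` -/
theorem TwoE.act {u : G} {e f e' f' : V} (h : Ev B N) (hT : TwoE B u e f e' f') {x : G} (hxN : x ∈ N)
    (hxu : x * u = u * x) : ∃ p q s t : F, x • e = p • e + q • f ∧ x • f = s • e + t • f ∧ p * t + q * s = 1 := by
  have key : ∀ v, B v e • x • f + B v f • x • e = B (x • v) e • f + B (x • v) f • e := by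
    intro v
    have h1 : x • u • v = u • x • v := by rw [← mul_smul, hxu, mul_smul]
    rw [hT.hu, hT.hu, smul_add, smul_add, h.lin hxN, h.lin hxN] at h1
    exact add_left_cancel h1
  have k1 := key e'
  have k2 := key f'
  rw [h.symm e' e, h.symm e' f, hT.h1, hT.h5, one_smul, zero_smul, add_zero] at k1
  rw [h.symm f' e, h.symm f' f, hT.h4, hT.h2, one_smul, zero_smul, zero_add] at k2
  refine ⟨B (x • f') f, B (x • f') e, B (x • e') f, B (x • e') e, ?_, ?_, ?_⟩
  · rw [k2, add_comm]
  · rw [k1, add_comm]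
  · have h1 := h.isom hxN e e'
    rw [k2, hT.h1, (B : V →ₗ[F] (V →ₗ[F] F)).map_add, (B : V →ₗ[F] (V →ₗ[F] F)).map_smul,
      (B : V →ₗ[F] (V →ₗ[F] F)).map_smul, LinearMap.add_apply, LinearMap.smul_apply, LinearMap.smul_apply,
      smul_eq_mul, smul_eq_mul, h.symm f, h.symm e] at h1
    linear_combination h1

/-- elements of odd order commuting with `u` have no fixed vectors on `E` -/
theorem TwoE.fpf {u : G} {e f e' f' : V} (h : Ev B N) (hdim : finrank F V = 4) (hT : TwoE B u e f e' f') {x : G}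
    (hxN : x ∈ N) {r : ℕ} (hr : Odd r) (hx : x ^ r = 1) (hx1 : x ≠ 1) (hxu : x * u = u * x) {a b : F}
    (hab : x • (a • e + b • f) = a • e + b • f) : a = 0 ∧ b = 0 := by
  obtain ⟨p, q, s, t, hxe, hxf, hdet⟩ := hT.act h hxN hxu
  have h1 : x • (a • e + b • f) = (a * p + b * s) • e + (a * q + b * t) • f := by
    rw [smul_add, h.lin hxN, h.lin hxN, hxe, hxf]
    module
  rw [h1] at hab
  obtain ⟨h2, h3⟩ := hT.coeff h hab
  by_contra hcon
  have hpt : p + t = 0 := by
    have ha : a * (p + t) = 0 := by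
      linear_combination (t + 1) * h2 + s * h3 - a * hdet + (a * p + a + a * q * s - b * s) * h.two - (a * p) * h.two -
        (a * q * s) * h.two + (b * s) * h.two + (-a + a * t - t * s * b) * h.two
    have hb : b * (p + t) = 0 := by
      linear_combination (p + 1) * h3 + q * h2 - b * hdet + (b * p - p * q * a) * h.two
    rcases mul_eq_zero.1 ha with h4 | h4
    · rcases mul_eq_zero.1 hb with h5 | h5
      · exact absurd ⟨h4, h5⟩ hcon
      · exact h5
    · exact h4
  have htp : t = p := by linear_combination hpt - p * h.two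
  subst htp
  apply hx1
  refine eq_one_of_fix h hdim hT.h1 hT.h2 hT.h3 hT.h4 hT.h5 hxN hr hx ?_ ?_
  · have h4 := fix_add h hr hx (w := e) (e := (t - 1) • e + q • f) (by
      rw [smul_add, h.lin hxN, h.lin hxN, hxe, hxf]
      have e1 : (t - 1) * t + q * s = t - 1 := by linear_combination hdet - (t - 1) * h.two
      have e2 : (t - 1) * q + q * t = q := by linear_combination (q * t - q) * h.two
      calc (t - 1) • (t • e + q • f) + q • (s • e + t • f) = ((t - 1) * t + q * s) • e + ((t - 1) * q + q * t) • f := by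
            module
        _ = _ := by rw [e1, e2]) (by rw [hxe]; module)
    have : x • e = e + ((t - 1) • e + q • f) := by rw [hxe]; module
    rw [this, h4, add_zero]
  · have h4 := fix_add h hr hx (w := f) (e := s • e + (t - 1) • f) (by
      rw [smul_add, h.lin hxN, h.lin hxN, hxe, hxf]
      have e1 : s * t + (t - 1) * s = s := by linear_combination (s * t - s) * h.two
      have e2 : s * q + (t - 1) * t = t - 1 := by linear_combination hdet - (t - 1) * h.two
      calc s • (t • e + q • f) + (t - 1) • (s • e + t • f) = (s * t + (t - 1) * s) • e + (s * q + (t - 1) * t) • f := by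
            module
        _ = _ := by rw [e1, e2]) (by rw [hxf]; module)
    have : x • f = f + (s • e + (t - 1) • f) := by rw [hxf]; module
    rw [this, h4, add_zero]

/-- only two types, if there is an element of odd order -/
theorem types [Finite F] (h : Ev B N) (hdim : finrank F V = 4) {u : G} (huN : u ∈ N) (hu2 : u * u = 1) (hu1 : u ≠ 1)
    {x : G} (hxN : x ∈ N) {r : ℕ} (hr : Odd r) (hx : x ^ r = 1) (hx1 : x ≠ 1) (hxu : x * u = u * x) :
    (∃ z : V, z ≠ 0 ∧ ∀ v, u • v = v + B v z • z) ∨ ∃ e f e' f' : V, TwoE B u e f e' f' := by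
  have huu : ∀ v : V, u • u • v = v := fun v => by rw [← mul_smul, hu2, one_smul]
  have hadj : ∀ v w, B (u • v) w = B v (u • w) := by
    intro v w
    have := h.isom huN v (u • w)
    rwa [huu] at this
  obtain ⟨z, hz⟩ := riesz h (fun v => B v (u • v)) (fun v w => by
    rw [smul_add, map_add, map_add, LinearMap.add_apply, LinearMap.add_apply]
    rw [← hadj v w, h.symm (u • v) w]
    linear_combination B w (u • v) * h.two) (fun c v => by
    rw [h.lin huN, LinearMap.map_smul, LinearMap.map_smul, LinearMap.smul_apply, smul_eq_mul, smul_eq_mul]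
    ring)
  by_cases hz0 : z = 0
  · right
    refine type_two h hdim huN hu2 hu1 fun v => ?_
    rw [hz, hz0, map_zero]
    ring
  have huz : u • z = z := fix_z h huN rfl hz
  have hxz : x • z = z := fix_z h hxN hxu hz
  have hua : ∀ v, (h.tr z 1 * u) • v = u • v + B v z • z := by
    intro v
    rw [mul_smul, h.tr_apply, one_mul, hadj, huz]
  have hu'N : h.tr z 1 * u ∈ N := N.mul_mem (h.tr_mem z 1) huN
  by_cases hu' : h.tr z 1 * u = 1
  · left
    refine ⟨z, hz0, fun v => ?_⟩
    have h1 := hua v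
    rw [hu', one_smul] at h1
    have h2 := h.vadd_self (B v z • z)
    calc u • v = u • v + (B v z • z + B v z • z) := by rw [h2, add_zero]
      _ = v + B v z • z := by rw [← add_assoc, ← h1]
  exfalso
  have hu'2 : (h.tr z 1 * u) * (h.tr z 1 * u) = 1 := by
    apply h.ext
    intro v
    rw [mul_smul, hua, hua, smul_add, huu, h.lin huN, huz, one_smul, LinearMap.map_add, LinearMap.map_smul,
      LinearMap.add_apply, LinearMap.smul_apply, h.self, smul_zero, add_zero, hadj, huz, add_assoc, h.vadd_self, add_zero]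
  have hf' : ∀ v, B v ((h.tr z 1 * u) • v) = 0 := by
    intro v
    rw [hua, LinearMap.map_add, LinearMap.map_smul, smul_eq_mul]
    have := hz v
    rw [this]
    linear_combination (B v z ^ 2) * h.two
  obtain ⟨e, f, e', f', hT⟩ := type_two h hdim hu'N hu'2 hu' hf'
  have hxu' : x * (h.tr z 1 * u) = (h.tr z 1 * u) * x := by
    apply h.ext
    intro v
    rw [mul_smul, hua, mul_smul _ x, hua, smul_add, h.lin hxN, hxz]
    have h1 : x • u • v = u • x • v := by rw [← mul_smul, hxu, mul_smul]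
    have h2 : B (x • v) z = B v z := by
      have := h.isom hxN v z
      rwa [hxz] at this
    rw [h1, h2]
  have h3 := hT.hu z
  rw [hua, huz, h.self, zero_smul, add_zero] at h3
  have h4 : B z f • e + B z e • f = (0 : F) • e + (0 : F) • f := by
    rw [zero_smul, zero_smul, add_zero, add_comm]
    exact (left_eq_add.1 h3)
  obtain ⟨h5, h6⟩ := hT.coeff h h4
  obtain ⟨a, b, hab⟩ := perp_mem h hdim hT.h1 hT.h2 hT.h3 hT.h4 hT.h5 h6 h5
  obtain ⟨ha, hb⟩ := hT.fpf h hdim hxN hr hx hx1 hxu' (a := a) (b := b) (by rw [← hab, hxz])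
  apply hz0
  rw [hab, ha, hb, zero_smul, zero_smul, add_zero]

end sympl

section groups

variable {F V G : Type*} [Field F] [AddCommGroup V] [Module F V] [Group G] [DistribMulAction G V]
  {B : LinearMap.BilinForm F V} {N : Subgroup G}

/-- two different non-zero scalars -/
theorem exists_scal (hq : 2 < Nat.card F) : ∃ k : F, k ≠ 0 ∧ k ≠ 1 := by
  by_contra hno
  push Not at hno
  have hfin : Finite F := Nat.finite_of_card_ne_zero (by omega)
  have : Nat.card F ≤ 2 := by
    have hs : Function.Surjective (fun b : Bool => if b then (1 : F) else 0) := by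
      intro a
      by_cases ha : a = 0
      · exact ⟨false, by simp [ha]⟩
      · exact ⟨true, by simp [hno a ha]⟩
    have := Nat.card_le_card_of_surjective _ hs
    simpa using this
  omega

/-- `g` is `y_{z,w} t_z(c)` -/
def IsY (B : LinearMap.BilinForm F V) (z : V) (g : G) (w : V) (c : F) : Prop :=
  B z w = 0 ∧ ∀ v, g • v = v + (B v z • w + B v w • z + (c * B v z) • z)

theorem exists_Y (h : Ev B N) {z w : V} (hzw : B z w = 0) (c : F) : ∃ g ∈ N, IsY B z g w c := by
  refine ⟨h.sr hzw * h.tr z c, N.mul_mem (h.sr_mem _) (h.tr_mem _ _), hzw, fun v => ?_⟩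
  rw [mul_smul, h.tr_apply, h.sr_apply]
  simp only [map_add, map_smul, LinearMap.add_apply, LinearMap.smul_apply, h.self, hzw, smul_zero, add_zero]
  module

theorem IsY.mul (h : Ev B N) {z w w' : V} {c c' : F} {g g' : G} (hg : IsY B z g w c) (hg' : IsY B z g' w' c') :
    IsY B z (g * g') (w + w') (c + c' + B w' w) := by
  refine ⟨by rw [map_add, hg.1, hg'.1, add_zero], fun v => ?_⟩
  have e1 : B w' z = 0 := by rw [h.symm, hg'.1]
  rw [mul_smul, hg'.2, hg.2]
  simp only [map_add, map_smul, LinearMap.add_apply, LinearMap.smul_apply, h.self, hg.1, e1, smul_zero, add_zero,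
    smul_eq_mul, mul_zero]
  module

theorem IsY.sq (h : Ev B N) {z w : V} {c : F} {g : G} (hg : IsY B z g w c) : g * g = 1 := by
  apply h.ext
  intro v
  have h1 := hg.mul h hg
  rw [h1.2, one_smul, h.vadd_self, h.self, add_zero, h.add_self, map_zero]
  simp

theorem IsY.conj (h : Ev B N) {z w : V} {c : F} {g a : G} (hg : IsY B z g w c) (ha : a ∈ N) (haz : a • z = z) :
    IsY B z (a * g * a⁻¹) (a • w) c := by
  have hi : ∀ v y, B (a⁻¹ • v) y = B v (a • y) := by
    intro v y
    have := h.isom ha (a⁻¹ • v) y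
    rwa [smul_inv_smul, eq_comm] at this
  refine ⟨?_, fun v => ?_⟩
  · have := h.isom ha z w
    rwa [haz, hg.1] at this
  · rw [mul_smul, mul_smul, hg.2, smul_add, smul_add, smul_add, h.lin ha, h.lin ha, h.lin ha, haz, smul_inv_smul, hi, hi,
      haz]

/-- the group `Q_z` -/
def QY (h : Ev B N) (z : V) : Subgroup G where
  carrier := {g | g ∈ N ∧ ∃ w c, IsY B z g w c}
  one_mem' := ⟨N.one_mem, 0, 0, by rw [map_zero], fun v => by simp⟩
  mul_mem' := by
    rintro a b ⟨ha, w, c, hw⟩ ⟨hb, w', c', hw'⟩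
    exact ⟨N.mul_mem ha hb, _, _, hw.mul h hw'⟩
  inv_mem' := by
    rintro a ⟨ha, w, c, hw⟩
    rw [inv_eq_of_mul_eq_one_left (hw.sq h)]
    exact ⟨ha, w, c, hw⟩

/-- **(TR)**, commutator form: a subgroup `D` normalised by the stabiliser of `z` and containing the commutators
of some `y = y_{z,w} t_z(c)`, `w ∉ F z`, contains all the transvections `t_z(c)` -/
theorem tr_mem_of_comm (h : Ev B N) (hq : 2 < Nat.card F) {z : V} (D : Subgroup G)
    (hD : ∀ g ∈ N, g • z = z → ∀ d ∈ D, g * d * g⁻¹ ∈ D) {w : V} (hw : ∀ c : F, w ≠ c • z) {c0 : F} {y : G}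
    (hy : ∀ g ∈ N, g • z = z → g * y * g⁻¹ * y⁻¹ ∈ D) (hyw : IsY B z y w c0) (c : F) : h.tr z c ∈ D := by
  obtain ⟨w', hw1, hw2⟩ := exists_dual h hw
  -- `p k = y_{z, k w'} t_z(k)`
  have hp : ∀ k : F, ∃ g ∈ D, IsY B z g (k • w') k := by
    intro k
    have htz : h.tr w' k • z = z := by rw [h.tr_apply, hw2, mul_zero, zero_smul, add_zero]
    have htw : h.tr w' k • w = w + k • w' := by rw [h.tr_apply, hw1, mul_one]
    refine ⟨_, hy _ (h.tr_mem w' k) htz, ?_⟩
    rw [inv_eq_of_mul_eq_one_left (hyw.sq h)]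
    have h1 := (hyw.conj h (h.tr_mem w' k) htz).mul h hyw
    rw [htw] at h1
    have e1 : w + k • w' + w = k • w' := by
      have := h.vadd_self w
      calc w + k • w' + w = (w + w) + k • w' := by abel
        _ = _ := by rw [this, zero_add]
    have e2 : c0 + c0 + B w (w + k • w') = k := by
      rw [map_add, map_smul, h.self, hw1, h.add_self, zero_add, zero_add, smul_eq_mul, mul_one]
    rw [e1, e2] at h1
    exact h1
  -- `r k m = y_{z, k m w} t_z(k ^ 2 m)`
  have hr : ∀ k m : F, ∃ g ∈ D, IsY B z g ((k * m) • w) (k ^ 2 * m) := by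
    intro k m
    obtain ⟨g, hg, hgY⟩ := hp k
    have htz : h.tr w m • z = z := by rw [h.tr_apply, hyw.1, mul_zero, zero_smul, add_zero]
    have htw : h.tr w m • (k • w') = k • w' + (k * m) • w := by
      rw [h.tr_apply, map_smul, LinearMap.smul_apply, h.symm w' w, hw1, smul_eq_mul, mul_one, mul_comm]
    refine ⟨_, D.mul_mem (hD _ (h.tr_mem w m) htz g hg) hg, ?_⟩
    have h1 := (hgY.conj h (h.tr_mem w m) htz).mul h hgY
    rw [htw] at h1
    have e1 : k • w' + (k * m) • w + k • w' = (k * m) • w := by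
      have := h.vadd_self (k • w')
      calc k • w' + (k * m) • w + k • w' = (k • w' + k • w') + (k * m) • w := by abel
        _ = _ := by rw [this, zero_add]
    have e2 : k + k + B (k • w') (k • w' + (k * m) • w) = k ^ 2 * m := by
      rw [map_add, h.self, map_smul, map_smul, LinearMap.smul_apply, h.symm w' w, hw1, h.add_self, smul_eq_mul,
        smul_eq_mul]
      ring
    rw [e1, e2] at h1
    exact h1
  obtain ⟨k1, hk1, hk2⟩ := exists_scal hq
  have hk3 : k1 + 1 ≠ 0 := by
    intro h1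
    apply hk2
    linear_combination h1 - h.two
  obtain ⟨g1, hg1, hY1⟩ := hr k1 ((k1 + 1)⁻¹ * c * k1⁻¹)
  obtain ⟨g2, hg2, hY2⟩ := hr 1 ((k1 + 1)⁻¹ * c)
  have h1 := hY1.mul h hY2
  have e1 : k1 * ((k1 + 1)⁻¹ * c * k1⁻¹) = 1 * ((k1 + 1)⁻¹ * c) := by
    field_simp
  have e2 : k1 ^ 2 * ((k1 + 1)⁻¹ * c * k1⁻¹) + 1 ^ 2 * ((k1 + 1)⁻¹ * c) = c := by
    field_simp
  rw [e1, h.vadd_self, h.self, add_zero, e2] at h1
  have h2 : h.tr z c = g1 * g2 := by
    apply h.ext
    intro v
    rw [h1.2, h.tr_apply, map_zero]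
    simp
  rw [h2]
  exact D.mul_mem hg1 hg2

/-- **(TR)**: a subgroup `D` normalised by the stabiliser of `z` and containing some `y_{z,w} t_z(c)`, `w ∉ F z`,
contains all the transvections `t_z(c)` -/
theorem tr_mem_of_mem (h : Ev B N) (hq : 2 < Nat.card F) {z : V} (D : Subgroup G)
    (hD : ∀ g ∈ N, g • z = z → ∀ d ∈ D, g * d * g⁻¹ ∈ D) {w : V} (hw : ∀ c : F, w ≠ c • z) {c0 : F} {y : G}
    (hy : y ∈ D) (hyw : IsY B z y w c0) (c : F) : h.tr z c ∈ D :=
  tr_mem_of_comm h hq D hD hw (fun g hg hgz => D.mul_mem (hD g hg hgz y hy) (D.inv_mem hy)) hyw c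

/-- `g` is `t_e(α) t_f(γ) y_{e,βf}` -/
def IsW (B : LinearMap.BilinForm F V) (e f : V) (g : G) (α β γ : F) : Prop :=
  ∀ v, g • v = v + ((α * B v e + β * B v f) • e + (β * B v e + γ * B v f) • f)

theorem exists_W (h : Ev B N) {e f : V} (hef : B e f = 0) (α β γ : F) : ∃ g ∈ N, IsW B e f g α β γ := by
  have hfe : B f e = 0 := by rw [h.symm, hef]
  have hef' : B e (β • f) = 0 := by rw [map_smul, hef, smul_zero]
  refine ⟨h.sr hef' * (h.tr f γ * h.tr e α), N.mul_mem (h.sr_mem _) (N.mul_mem (h.tr_mem _ _) (h.tr_mem _ _)),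
    fun v => ?_⟩
  rw [mul_smul, mul_smul, h.tr_apply, h.tr_apply, h.sr_apply]
  simp only [map_add, map_smul, LinearMap.add_apply, LinearMap.smul_apply, h.self, hef, hfe, smul_zero, add_zero,
    smul_eq_mul, mul_zero]
  module

theorem IsW.mul (h : Ev B N) {e f : V} (hef : B e f = 0) {α β γ α' β' γ' : F} {g g' : G} (hg : IsW B e f g α β γ)
    (hg' : IsW B e f g' α' β' γ') : IsW B e f (g * g') (α + α') (β + β') (γ + γ') := by
  have hfe : B f e = 0 := by rw [h.symm, hef]
  intro v
  rw [mul_smul, hg', hg]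
  simp only [map_add, map_smul, LinearMap.add_apply, LinearMap.smul_apply, h.self, hef, hfe, smul_zero, add_zero,
    smul_eq_mul, mul_zero]
  module

theorem IsW.ext (h : Ev B N) {e f : V} {α β γ : F} {g g' : G} (hg : IsW B e f g α β γ) (hg' : IsW B e f g' α β γ) :
    g = g' := h.ext fun v => by rw [hg, hg']

theorem IsW.sq (h : Ev B N) {e f : V} (hef : B e f = 0) {α β γ : F} {g : G} (hg : IsW B e f g α β γ) : g * g = 1 := by
  apply h.ext
  intro v
  rw [hg.mul h hef hg, h.add_self, h.add_self, h.add_self]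
  simp

theorem IsW.conj (h : Ev B N) {e f : V} {α β γ : F} {g a : G} (hg : IsW B e f g α β γ) (ha : a ∈ N) {p q s t : F}
    (hae : a • e = p • e + q • f) (haf : a • f = s • e + t • f) :
    IsW B e f (a * g * a⁻¹) (α * p ^ 2 + γ * s ^ 2) (α * (p * q) + β * (p * t + q * s) + γ * (s * t))
      (α * q ^ 2 + γ * t ^ 2) := by
  have hi : ∀ v y, B (a⁻¹ • v) y = B v (a • y) := by
    intro v y
    have := h.isom ha (a⁻¹ • v) y
    rwa [smul_inv_smul, eq_comm] at this
  intro v
  rw [mul_smul, mul_smul, hg, smul_add, smul_add, h.lin ha, h.lin ha, smul_inv_smul, hi, hi, hae, haf]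
  have h2e : (2 : F) • e = 0 := by rw [h.two, zero_smul]
  have h2f : (2 : F) • f = 0 := by rw [h.two, zero_smul]
  simp only [LinearMap.map_add, LinearMap.map_smul, smul_eq_mul]
  have e1 : (α * (p * B v e + q * B v f) + β * (s * B v e + t * B v f)) * p +
      (β * (p * B v e + q * B v f) + γ * (s * B v e + t * B v f)) * s =
      (α * p ^ 2 + γ * s ^ 2) * B v e + (α * (p * q) + β * (p * t + q * s) + γ * (s * t)) * B v f := by
    linear_combination (β * s * p * B v e) * h.two
  have e2 : (α * (p * B v e + q * B v f) + β * (s * B v e + t * B v f)) * q +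
      (β * (p * B v e + q * B v f) + γ * (s * B v e + t * B v f)) * t =
      (α * (p * q) + β * (p * t + q * s) + γ * (s * t)) * B v e + (α * q ^ 2 + γ * t ^ 2) * B v f := by
    linear_combination (β * q * t * B v f) * h.two
  rw [← e1, ← e2]
  module

/-- the group `U_E` -/
def UE (h : Ev B N) {e f : V} (hef : B e f = 0) : Subgroup G where
  carrier := {g | g ∈ N ∧ ∃ α β γ, IsW B e f g α β γ}
  one_mem' := ⟨N.one_mem, 0, 0, 0, fun v => by simp⟩
  mul_mem' := by
    rintro a b ⟨ha, α, β, γ, hw⟩ ⟨hb, α', β', γ', hw'⟩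
    exact ⟨N.mul_mem ha hb, _, _, _, hw.mul h hef hw'⟩
  inv_mem' := by
    rintro a ⟨ha, α, β, γ, hw⟩
    rw [inv_eq_of_mul_eq_one_left (hw.sq h hef)]
    exact ⟨ha, α, β, γ, hw⟩

variable [FiniteDimensional F V]

omit [FiniteDimensional F V] in
theorem TwoE.isW {u : G} {e f e' f' : V} (hT : TwoE B u e f e' f') : IsW B e f u 0 1 0 := by
  intro v
  rw [hT.hu]
  simp only [zero_mul, one_mul, zero_add, add_zero]
  rw [add_comm (B v e • f)]

omit [FiniteDimensional F V] in
/-- a subgroup normalised by `C(u)` and containing the commutators of some `t_e(α) t_f(γ) y_{e,βf}`, `γ ≠ 0`, contains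
`u = y_{e,f}` -/
theorem TwoE.mem_of_comm [Finite F] (h : Ev B N) (hq : 2 < Nat.card F) {u : G} {e f e' f' : V}
    (hT : TwoE B u e f e' f') (D : Subgroup G) (hD : ∀ g ∈ N, g * u = u * g → ∀ d ∈ D, g * d * g⁻¹ ∈ D) {t : G}
    (ht : ∀ g ∈ N, g * u = u * g → g * t * g⁻¹ * t⁻¹ ∈ D) {α β γ : F} (htW : IsW B e f t α β γ) (hγ : γ ≠ 0) :
    u ∈ D := by
  have hef := hT.h3
  have hfe : B f e = 0 := by rw [h.symm, hef]
  -- `f ↦ f + l e`
  have hA : ∀ l : F, ∃ g ∈ N, g * u = u * g ∧ g • e = (1 : F) • e + (0 : F) • f ∧ g • f = l • e + (1 : F) • f := by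
    intro l
    have h0 : B e (l • f') = 0 := by rw [map_smul, hT.h4, smul_zero]
    have he : h.sr h0 • e = (1 : F) • e + (0 : F) • f := by
      rw [h.sr_apply, h.self, h0]; simp
    have hf : h.sr h0 • f = l • e + (1 : F) • f := by
      rw [h.sr_apply, hfe, map_smul, hT.h2, smul_eq_mul, mul_one, zero_smul, add_zero, one_smul, add_comm]
    refine ⟨h.sr h0, h.sr_mem h0, ?_, he, hf⟩
    have h1 := hT.isW.conj h (h.sr_mem h0) he hf
    have h2 : IsW B e f (h.sr h0 * u * (h.sr h0)⁻¹) 0 1 0 := by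
      convert h1 using 1 <;> ring
    have h3 := IsW.ext h h2 hT.isW
    calc h.sr h0 * u = (h.sr h0 * u * (h.sr h0)⁻¹) * h.sr h0 := by group
      _ = _ := by rw [h3]
  have hA' : ∀ l : F, ∃ g ∈ N, g * u = u * g ∧ g • e = (1 : F) • e + l • f ∧ g • f = (0 : F) • e + (1 : F) • f := by
    intro l
    have h0 : B f (l • e') = 0 := by rw [map_smul, hT.h5, smul_zero]
    have he : h.sr h0 • e = (1 : F) • e + l • f := by
      rw [h.sr_apply, hef, map_smul, hT.h1, smul_eq_mul, mul_one, zero_smul, add_zero, one_smul]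
    have hf : h.sr h0 • f = (0 : F) • e + (1 : F) • f := by
      rw [h.sr_apply, h.self, h0]; simp
    refine ⟨h.sr h0, h.sr_mem h0, ?_, he, hf⟩
    have h1 := hT.isW.conj h (h.sr_mem h0) he hf
    have h2 : IsW B e f (h.sr h0 * u * (h.sr h0)⁻¹) 0 1 0 := by
      convert h1 using 1 <;> ring
    have h3 := IsW.ext h h2 hT.isW
    calc h.sr h0 * u = (h.sr h0 * u * (h.sr h0)⁻¹) * h.sr h0 := by group
      _ = _ := by rw [h3]
  -- `W(l ^ 2 / γ, l, 0)`
  have h1 : ∀ l : F, ∃ d ∈ D, IsW B e f d (l ^ 2 / γ) l 0 := by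
    intro l
    obtain ⟨g, hg, hgu, hge, hgf⟩ := hA (l / γ)
    refine ⟨_, ht g hg hgu, ?_⟩
    rw [inv_eq_of_mul_eq_one_left (htW.sq h hef)]
    have h2 := (htW.conj h hg hge hgf).mul h hef htW
    convert h2 using 1
    · field_simp
      linear_combination -(α * γ) * h.two
    · field_simp
      linear_combination -(γ * β) * h.two
    · linear_combination -γ * h.two
  have h2 : ∀ l m : F, ∃ d ∈ D, IsW B e f d 0 (l ^ 2 / γ * m) (l ^ 2 / γ * m ^ 2) := by
    intro l m
    obtain ⟨d, hd, hdW⟩ := h1 l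
    obtain ⟨g, hg, hgu, hge, hgf⟩ := hA' m
    refine ⟨_, D.mul_mem (hD g hg hgu d hd) hd, ?_⟩
    have h3 := (hdW.conj h hg hge hgf).mul h hef hdW
    convert h3 using 1
    · linear_combination -(l ^ 2 / γ) * h.two
    · linear_combination -l * h.two
    · ring
  -- `W(0, μ, μ ^ 2 γ / l ^ 2)`, `l ≠ 0`
  have h3 : ∀ l m : F, l ≠ 0 → ∃ d ∈ D, IsW B e f d 0 m (m ^ 2 * γ / l ^ 2) := by
    intro l m hl
    obtain ⟨d, hd, hdW⟩ := h2 l (m * γ / l ^ 2)
    refine ⟨d, hd, ?_⟩
    convert hdW using 1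
    · field_simp
    · field_simp
  obtain ⟨k, hk0, hk1⟩ := exists_scal hq
  have hk2 : k + 1 ≠ 0 := by
    intro h4
    apply hk1
    linear_combination h4 - h.two
  -- `W(0, 0, c)` with `c = γ`
  have hinj : Function.Injective (fun a : F => a ^ 2) := by
    intro a b hab
    have h1 : (a - b) ^ 2 = 0 := by
      have h2 : a ^ 2 = b ^ 2 := hab
      linear_combination h2 + (b ^ 2 - a * b) * h.two
    exact sub_eq_zero.1 (pow_eq_zero_iff (two_ne_zero)|>.1 h1)
  have hsurj := Finite.surjective_of_injective hinj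
  have h4 : ∃ d ∈ D, IsW B e f d 0 0 γ := by
    obtain ⟨m, hm⟩ := hsurj ((k ^ 2) / (k + 1) ^ 2)
    have hm' : m ^ 2 = k ^ 2 / (k + 1) ^ 2 := hm
    obtain ⟨d1, hd1, hW1⟩ := h3 k m hk0
    obtain ⟨d2, hd2, hW2⟩ := h3 1 m one_ne_zero
    refine ⟨_, D.mul_mem hd1 hd2, ?_⟩
    have h5 := hW1.mul h hef hW2
    rw [hm'] at h5
    convert h5 using 1
    · ring
    · rw [h.add_self]
    · field_simp
      linear_combination k * h.two
  obtain ⟨d1, hd1, hW1⟩ := h4
  obtain ⟨d2, hd2, hW2⟩ := h3 1 1 one_ne_zero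
  have h5 := hW1.mul h hef hW2
  have h6 : IsW B e f (d1 * d2) 0 1 0 := by
    convert h5 using 1
    · ring
    · ring
    · linear_combination -γ * h.two
  rw [IsW.ext h hT.isW h6]
  exact D.mul_mem hd1 hd2

/-- `C_{U_E}(x)` for `x` of odd order commuting with `u` -/
theorem TwoE.ker [Finite F] (h : Ev B N) (hdim : finrank F V = 4) {u : G} {e f e' f' : V} (hT : TwoE B u e f e' f')
    {x : G} (hxN : x ∈ N) {r : ℕ} (hr : Odd r) (hx : x ^ r = 1) (hx1 : x ≠ 1) (hxu : x * u = u * x) {g : G}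
    {α β γ : F} (hg : IsW B e f g α β γ) (hxg : x * g = g * x) : α = 0 ∧ γ = 0 := by
  have hinj : Function.Injective (fun a : F => a ^ 2) := by
    intro a b hab
    have h1 : (a - b) ^ 2 = 0 := by
      have h2 : a ^ 2 = b ^ 2 := hab
      linear_combination h2 + (b ^ 2 - a * b) * h.two
    exact sub_eq_zero.1 (pow_eq_zero_iff (two_ne_zero)|>.1 h1)
  obtain ⟨a, ha⟩ := Finite.surjective_of_injective hinj α
  obtain ⟨c, hc⟩ := Finite.surjective_of_injective hinj γ
  have ha' : a ^ 2 = α := ha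
  have hc' : c ^ 2 = γ := hc
  have hz : x • (a • e + c • f) = a • e + c • f := by
    refine fix_z h hxN hxg fun v => ?_
    rw [hg]
    simp only [LinearMap.map_add, LinearMap.map_smul, smul_eq_mul, h.self, ← ha', ← hc']
    linear_combination (β * B v e * B v f - a * c * B v e * B v f) * h.two
  obtain ⟨h1, h2⟩ := hT.fpf h hdim hxN hr hx hx1 hxu hz
  exact ⟨by rw [← ha', h1]; ring, by rw [← hc', h2]; ring⟩

/-- **box M2U** -/
theorem mtwo_u {F V G Ω : Type} [Field F] [Finite F] [AddCommGroup V] [Module F V] [FiniteDimensional F V] [Group G]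
    [Finite G] [DistribMulAction G V] {B : LinearMap.BilinForm F V} {N : Subgroup G} (h : Ev B N) [MulAction G Ω]
    [Nonempty Ω] (hE : Env G Ω N) {ι : Type} [Finite ι] {x : ι → G} {r : ι → ℕ} (hx : PF x r) (hcov : Cov Ω x)
    (hdim : finrank F V = 4) (hq : 2 < Nat.card F) (hlin : ∀ i, x i ∈ N) (i : ι) (hi : r i = 2) : False := by
  have hodd : ∀ j, j ≠ i → Odd (r j) := by
    intro j hj
    apply (hx.prime j).odd_of_ne_two
    intro h
    exact hj (hx.inj (h.trans hi.symm))
  have hu2 : x i * x i = 1 := by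
    have := hx.pow i
    rwa [hi, pow_two] at this
  -- an odd member
  obtain ⟨j0, hj0⟩ : ∃ j, j ≠ i := hcov.two hE hx.ne i
  rcases types h hdim (hlin i) hu2 (hx.ne i) (hlin j0) (hodd j0 hj0) (hx.pow j0) (hx.ne j0) (hx.comm j0 i) with
    ⟨z, hz0, hz⟩ | ⟨e, f, e', f', hT⟩
  · -- type I
    have hzq : ∀ v, B v (x i • v) = B v z ^ 2 := by
      intro v
      rw [hz, LinearMap.map_add, h.self, LinearMap.map_smul, smul_eq_mul]
      ring
    have hxz : ∀ j, x j • z = z := fun j => fix_z h (hlin j) (hx.comm j i) hzq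
    -- `z'`, and vectors outside `F z`
    obtain ⟨z', hz', -⟩ := exists_dual h (z := z) (w := 0) (fun c => by rwa [smul_zero])
    obtain ⟨w, hzw, hw⟩ : ∃ w, B z w = 0 ∧ ∀ c : F, w ≠ c • z := by
      by_contra hno
      push Not at hno
      have hsp : Submodule.span F (Set.range ![z, z']) = ⊤ := by
        rw [eq_top_iff]
        intro v _
        obtain ⟨c, hc⟩ := hno (v - B z v • z') (by
          rw [LinearMap.map_sub, LinearMap.map_smul, hz', smul_eq_mul, mul_one, sub_self])
        rw [Submodule.mem_span_range_iff_exists_fun]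
        refine ⟨![c, B z v], ?_⟩
        rw [Fin.sum_univ_two]
        simp only [Matrix.cons_val_zero, Matrix.cons_val_one]
        rw [← hc]
        abel
      have h1 := finrank_range_le_card (R := F) ![z, z']
      rw [Set.finrank, hsp, finrank_top, hdim] at h1
      simp at h1
    -- elements of odd order fixing `z` and a vector `w`, `B z w = 0`, `w ∉ F z`, are trivial
    have hfix : ∀ j, j ≠ i → ∀ w : V, B z w = 0 → x j • w = w → ∃ c : F, w = c • z := by
      intro j hj w hzw hxw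
      by_contra hno
      push Not at hno
      obtain ⟨w', hw1, hw2⟩ := exists_dual h hno
      obtain ⟨z'', hz1, hz2⟩ := exists_dual h (z := z) (w := w) (fun c hc => by
        have hc0 : c ≠ 0 := by
          rintro rfl
          rw [zero_smul] at hc
          exact hz0 hc
        exact hno c⁻¹ (by rw [hc, smul_smul, inv_mul_cancel₀ hc0, one_smul]))
      exact hx.ne j (eq_one_of_fix h hdim hz1 hw1 hzw hw2 hz2 (hlin j) (hodd j hj) (hx.pow j) (hxz j) hxw)
    have hfix' : ∀ j, j ≠ i → ∀ w : V, B z w = 0 → (∃ c : F, x j • w = w + c • z) → ∃ c : F, w = c • z := by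
      rintro j hj w hzw ⟨c, hc⟩
      have h1 := fix_add h (hodd j hj) (hx.pow j) (w := w) (e := c • z) (by rw [h.lin (hlin j), hxz]) hc
      rw [h1, add_zero] at hc
      exact hfix j hj w hzw hc
    have hUx : ∀ j, ∀ u ∈ QY h z, x j * u * (x j)⁻¹ ∈ QY h z := by
      rintro j u ⟨huN, w, c, hw⟩
      exact ⟨N.mul_mem (N.mul_mem (hlin j) huN) (N.inv_mem (hlin j)), _, _, hw.conj h (hlin j) (hxz j)⟩
    have huQ : x i ∈ QY h z := ⟨hlin i, 0, 1, by rw [map_zero], fun v => by
      rw [hz, map_zero]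
      simp⟩
    have hker : ∀ j k, j ≠ i → k ≠ i → ∀ u ∈ QY h z, x j * u = u * x j → x k * u = u * x k := by
      rintro j k hj hk u ⟨huN, w, c, hw⟩ hju
      have h1 := hw.conj h (hlin j) (hxz j)
      have h2 : x j * u * (x j)⁻¹ = u := by rw [hju]; group
      rw [h2] at h1
      -- `x j • w = w + κ z`
      obtain ⟨κ, hκ⟩ : ∃ κ : F, w = κ • z := by
        apply hfix' j hj w hw.1
        have h3 : ∀ v, B v z • w + B v w • z = B v z • x j • w + B v (x j • w) • z := by
          intro v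
          have h4 := hw.2 v
          rw [h1.2 v] at h4
          have h5 := add_left_cancel h4
          exact (add_right_cancel h5).symm
        have h4 := h3 z'
        rw [h.symm z' z, hz', one_smul, one_smul] at h4
        refine ⟨B z' w - B z' (x j • w), ?_⟩
        rw [sub_smul, ← add_sub_assoc, h4]
        abel
      apply h.ext
      intro v
      have h5 := h.isom (hlin k) v z
      rw [hxz] at h5
      rw [mul_smul, mul_smul, hw.2, hw.2, smul_add, smul_add, smul_add, h.lin (hlin k), h.lin (hlin k),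
        h.lin (hlin k), hκ, h.lin (hlin k), hxz, h5, LinearMap.map_smul, LinearMap.map_smul, h5]
    -- `g = y_{z,w}`
    obtain ⟨g, hgN, hg⟩ := exists_Y h hzw 0
    have hgQ : g ∈ QY h z := ⟨hgN, _, _, hg⟩
    have hpair := cover_pair hx hcov hi (fun u hu => by
      obtain ⟨-, w, c, hw⟩ := hu
      exact hw.sq h) hUx huQ hker hj0 hgQ
    -- `t = y_{z, w + x w} ...`
    have hgi : g⁻¹ = g := inv_eq_of_mul_eq_one_left (hg.sq h)
    have ht : IsY B z (g * x j0 * g⁻¹ * (x j0)⁻¹) (w + x j0 • w) (0 + 0 + B (x j0 • w) w) := by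
      have h1 := hg.mul h (hg.conj h (hlin j0) (hxz j0))
      have h2 : g * x j0 * g⁻¹ * (x j0)⁻¹ = g * (x j0 * g * (x j0)⁻¹) := by
        rw [hgi]; group
      rw [h2]
      exact h1
    have htw : ∀ c : F, w + x j0 • w ≠ c • z := by
      intro c hc
      obtain ⟨c', hc'⟩ := hfix' j0 hj0 w hzw ⟨c, by
        rw [← hc, ← add_assoc, h.vadd_self, zero_add]⟩
      exact hw c' hc'
    have hmem := tr_mem_of_comm h hq (cmm (N ⊓ stabilizer G z) (g * x j0 * g⁻¹ * (x j0)⁻¹))
      (fun a ha haz d hd => cmm_conj ⟨ha, haz⟩ hd) htw (fun a ha haz => mem_cmm ⟨ha, haz⟩) ht 1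
    have hxi : h.tr z 1 = x i := by
      apply h.ext
      intro v
      rw [h.tr_apply, hz, one_mul]
    rw [hxi] at hmem
    refine not_cov_one hE hpair ?_ (hx.ne i) hmem
    rintro a ⟨ha, haz⟩
    have haz' : a • z = z := haz
    apply h.ext
    intro v
    have h1 := h.isom ha v z
    rw [haz'] at h1
    rw [mul_smul, mul_smul, hz, hz, smul_add, h.lin ha, haz', h1]
  · -- type II
    have hUx : ∀ j, ∀ u ∈ UE h hT.h3, x j * u * (x j)⁻¹ ∈ UE h hT.h3 := by
      rintro j u ⟨huN, α, β, γ, hw⟩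
      obtain ⟨p, q, s, t, hxe, hxf, -⟩ := hT.act h (hlin j) (hx.comm j i)
      exact ⟨N.mul_mem (N.mul_mem (hlin j) huN) (N.inv_mem (hlin j)), _, _, _, hw.conj h (hlin j) hxe hxf⟩
    have hker : ∀ j k, j ≠ i → k ≠ i → ∀ u ∈ UE h hT.h3, x j * u = u * x j → x k * u = u * x k := by
      rintro j k hj hk u ⟨huN, α, β, γ, hw⟩ hju
      obtain ⟨rfl, rfl⟩ := hT.ker h hdim (hlin j) (hodd j hj) (hx.pow j) (hx.ne j) (hx.comm j i) hw hju
      obtain ⟨p, q, s, t, hxe, hxf, hdet⟩ := hT.act h (hlin k) (hx.comm k i)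
      have h1 := hw.conj h (hlin k) hxe hxf
      have h2 : IsW B e f (x k * u * (x k)⁻¹) 0 β 0 := by
        convert h1 using 1
        · ring
        · rw [hdet]; ring
        · ring
      have h3 := IsW.ext h h2 hw
      calc x k * u = (x k * u * (x k)⁻¹) * x k := by group
        _ = _ := by rw [h3]
    obtain ⟨g, hg, α, β, γ, ht, hγ⟩ : ∃ g ∈ UE h hT.h3, ∃ α β γ, IsW B e f (g * x j0 * g⁻¹ * (x j0)⁻¹) α β γ ∧ γ ≠ 0 := by
      obtain ⟨p, q, s, t, hxe, hxf, hdet⟩ := hT.act h (hlin j0) (hx.comm j0 i)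
      by_cases hq0 : q = 0
      · obtain ⟨g, hgN, hg⟩ := exists_W h hT.h3 0 0 1
        have h1 := hg.mul h hT.h3 (hg.conj h (hlin j0) hxe hxf)
        have h2 : g * x j0 * g⁻¹ * (x j0)⁻¹ = g * (x j0 * g * (x j0)⁻¹) := by
          rw [inv_eq_of_mul_eq_one_left (hg.sq h hT.h3)]; group
        rw [← h2] at h1
        refine ⟨g, ⟨hgN, _, _, _, hg⟩, _, _, _, h1, ?_⟩
        · intro h0
          have ht1 : t = 1 := by
            apply sq_inj h
            linear_combination h0 - h.two
          rw [hq0, ht1, zero_mul, add_zero, mul_one] at hdet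
          rw [hq0, hdet] at hxe
          have := (hT.fpf h hdim (hlin j0) (hodd j0 hj0) (hx.pow j0) (hx.ne j0) (hx.comm j0 i) (a := 1) (b := 0)
            (by rw [one_smul, zero_smul, add_zero, hxe, one_smul, zero_smul, add_zero])).1
          exact one_ne_zero this
      · obtain ⟨g, hgN, hg⟩ := exists_W h hT.h3 1 0 0
        have h1 := hg.mul h hT.h3 (hg.conj h (hlin j0) hxe hxf)
        have h2 : g * x j0 * g⁻¹ * (x j0)⁻¹ = g * (x j0 * g * (x j0)⁻¹) := by
          rw [inv_eq_of_mul_eq_one_left (hg.sq h hT.h3)]; group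
        rw [← h2] at h1
        refine ⟨g, ⟨hgN, _, _, _, hg⟩, _, _, _, h1, ?_⟩
        rw [zero_mul, add_zero, one_mul, zero_add]
        exact pow_ne_zero 2 hq0
    have hpair := cover_pair hx hcov hi (fun u hu => by
      obtain ⟨-, α, β, γ, hw⟩ := hu
      exact hw.sq h hT.h3) hUx ⟨hlin i, _, _, _, hT.isW⟩ hker hj0 hg
    have hC : ∀ a : G, a ∈ Subgroup.centralizer {x i} ↔ a * x i = x i * a := fun a =>
      Subgroup.mem_centralizer_singleton_iff
    have hmem := hT.mem_of_comm h hq (cmm (Subgroup.centralizer {x i}) (g * x j0 * g⁻¹ * (x j0)⁻¹))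
      (fun a ha hau d hd => cmm_conj ((hC a).2 hau) hd) (fun a ha hau => mem_cmm ((hC a).2 hau)) ht hγ
    exact not_cov_one hE hpair (fun a ha => (hC a).1 ha) (hx.ne i) hmem

end groups

end Cfsg.Agent.H478.Cyc
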